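import Cfsg.Agent.Comp.J4.CM

/-! The conjugates of the normal subgroup that contain an involution. -/

set_option autoImplicit false
set_option maxRecDepth 100000

namespace Cfsg.Agent.Comp.J4
open Cfsg Cfsg.Agent.Comp

open Cfsg.Agent.Golay Cfsg.Agent.J4B
open scoped Pointwise

/-- the test at an element of the normal subgroup -/
noncomputable def tst (X m : ℕ) : Bool :=
  force (Nat.xor X A0) fun Y => rng (fun i => force (Nat.mul (nat_lit 2) (Nat.succ i)) fun c =>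
    Nat.ble (nat_lit 1) (get (nat_lit 112) Y c) ||
    (force (get (nat_lit 112) Y (Nat.succ c)) fun f => Nat.ble (nat_lit 1) f &&
      Nat.ble (nat_lit 1) (Nat.xor f (get (nat_lit 112) A0 c))) || (al.getD i []).contains m)
    (nat_lit 0) (nat_lit 19)

/-- the test at all products -/
noncomputable def enumV (R : ℕ) (l : List (ℕ × ℕ)) : ℕ → ℕ → Bool :=
  List.rec (motive := fun _ => ℕ → ℕ → Bool) tst (fun b _ ih X m => ih X m &&
    force (runX R M2 [b.1] X) fun X' => force (Nat.xor m b.2) fun m' => ih X' m') l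

/-- the test with evaluated arguments -/
noncomputable def enumF (l : List (ℕ × ℕ)) (X m : ℕ) : Bool :=
  force X fun X => force m fun m => force (repl (nat_lit 112) 40) fun R => enumV R l X m

theorem enumF_cons (b : ℕ × ℕ) (l : List (ℕ × ℕ)) (X m : ℕ) :
    enumF (b :: l) X m = (enumF l X m && enumF l (rn 40 [b.1] X) (m ^^^ b.2)) := by
  simp only [enumF, enumV, force_eq]; rfl

theorem en0 : enumF (bl.drop 3) A0
    0 = true := by decide +kernel

theorem en1 : enumF (bl.drop 3) (rn 40 [(bl.getD 2 (0, 0)).1] A0)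
    (0 ^^^ (bl.getD 2 (0, 0)).2) = true := by decide +kernel

theorem en2 : enumF (bl.drop 3) (rn 40 [(bl.getD 1 (0, 0)).1] A0)
    (0 ^^^ (bl.getD 1 (0, 0)).2) = true := by decide +kernel

theorem en3 : enumF (bl.drop 3) (rn 40 [(bl.getD 2 (0, 0)).1] (rn 40 [(bl.getD 1 (0, 0)).1] A0))
    ((0 ^^^ (bl.getD 1 (0, 0)).2) ^^^ (bl.getD 2 (0, 0)).2) = true := by decide +kernel

theorem en4 : enumF (bl.drop 3) (rn 40 [(bl.getD 0 (0, 0)).1] A0)
    (0 ^^^ (bl.getD 0 (0, 0)).2) = true := by decide +kernel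

theorem en5 : enumF (bl.drop 3) (rn 40 [(bl.getD 2 (0, 0)).1] (rn 40 [(bl.getD 0 (0, 0)).1] A0))
    ((0 ^^^ (bl.getD 0 (0, 0)).2) ^^^ (bl.getD 2 (0, 0)).2) = true := by decide +kernel

theorem en6 : enumF (bl.drop 3) (rn 40 [(bl.getD 1 (0, 0)).1] (rn 40 [(bl.getD 0 (0, 0)).1] A0))
    ((0 ^^^ (bl.getD 0 (0, 0)).2) ^^^ (bl.getD 1 (0, 0)).2) = true := by decide +kernel

theorem en7 : enumF (bl.drop 3) (rn 40 [(bl.getD 2 (0, 0)).1] (rn 40 [(bl.getD 1 (0, 0)).1] (rn 40 [(bl.getD 0 (0, 0)).1] A0)))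
    (((0 ^^^ (bl.getD 0 (0, 0)).2) ^^^ (bl.getD 1 (0, 0)).2) ^^^ (bl.getD 2 (0, 0)).2) = true := by decide +kernel

theorem enum_bl : enumF bl A0 0 = true := by
  have e : ∀ b l X m, enumF l X m = true → enumF l (rn 40 [b.1] X) (m ^^^ b.2) = true →
      enumF (b :: l) X m = true := fun b l X m h1 h2 => by rw [enumF_cons, h1, h2]; rfl
  change enumF (bl.getD 0 (0, 0) :: bl.getD 1 (0, 0) :: bl.getD 2 (0, 0) :: bl.drop 3) A0 0 = true
  exact e _ _ _ _ (e _ _ _ _ (e _ _ _ _ en0 en1) (e _ _ _ _ en2 en3))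
    (e _ _ _ _ (e _ _ _ _ en4 en5) (e _ _ _ _ en6 en7))

/-- sums of members of a list -/
def inS : List (ℕ × ℕ) → ℕ → Bool
  | [], m => m == 0
  | b :: l, m => inS l m || inS l (m ^^^ b.2)

theorem inS_xor {l : List (ℕ × ℕ)} {a b : ℕ} (ha : inS l a = true) (hb : inS l b = true) :
    inS l (a ^^^ b) = true := by
  induction l generalizing a b with
  | nil => simp only [inS, beq_iff_eq] at *; rw [ha, hb]; rfl
  | cons t l ih =>
    simp only [inS, Bool.or_eq_true] at *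
    rcases ha with ha | ha <;> rcases hb with hb | hb
    · exact Or.inl (ih ha hb)
    · exact Or.inr (by rw [Nat.xor_assoc]; exact ih ha hb)
    · exact Or.inr (by rw [Nat.xor_right_comm]; exact ih ha hb)
    · left
      have := ih ha hb
      rwa [Nat.xor_assoc, Nat.xor_comm b, Nat.xor_xor_cancel_left] at this

theorem inS_zero (l : List (ℕ × ℕ)) : inS l 0 = true := by
  induction l with
  | nil => rfl
  | cons t l ih => simp [inS, ih]

theorem nu_xor (a b : ℕ) : nu (um (a ^^^ b)) = nu (um a) * nu (um b) := by rw [um_xor, nu_symmDiff]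

theorem enum_spec {l : List (ℕ × ℕ)} (hl : ∀ b ∈ l, b.1 < 34 ∧ s2 b.1 = nu (um b.2)) {X m : ℕ}
    (h : enumF l X m = true) (hX : ∀ c < 40, vec X c = ac (nu (um m)) (vec A0 c)) {m' : ℕ}
    (hm : inS l m' = true) : ∃ X', tst X' (m ^^^ m') = true ∧
      ∀ c < 40, vec X' c = ac (nu (um (m ^^^ m'))) (vec A0 c) := by
  induction l generalizing X m m' with
  | nil =>
    simp only [inS, beq_iff_eq] at hm
    simp only [enumF, force_eq] at h
    rw [hm, Nat.xor_zero]
    exact ⟨X, h, hX⟩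
  | cons b l ih =>
    have hl' := fun c hc => hl c (List.mem_cons_of_mem _ hc)
    rw [enumF_cons, Bool.and_eq_true] at h
    simp only [inS, Bool.or_eq_true] at hm
    rcases hm with hm | hm
    · exact ih hl' h.1 hX hm
    · have := ih hl' h.2 (fun c hc => by
        rw [vec_rn (by simpa using (hl b List.mem_cons_self).1) hc, ev_single, hX c hc, ← ac_mul,
          (hl b List.mem_cons_self).2, nu_xor, nu_comm]) hm
      rwa [Nat.xor_assoc, Nat.xor_comm m', Nat.xor_xor_cancel_left] at this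

theorem s2_z : s2 4 = v := by
  have := eq2 ([4], J4.vw) (by decide +kernel)
  rwa [ev_single, ev_s2 (by decide), ← v_ev] at this

theorem nu_word {w : List ℕ} (hw : ∀ x ∈ w, x < 3) :
    nu (um (Golay.act (Golay.mat (J4A.evc w)) cT0)) = ev s w * v * (ev s w)⁻¹ := by
  rw [← io_ev hw, ← nu_T0, ← nu_smul _ (by decide +kernel), ← J4A.pc_ev, ← um_mk (_ • _), ← act_pc,
    mk_um (by decide)]

theorem bl_ok : ∀ b ∈ bl, b.1 < 34 ∧ s2 b.1 = nu (um b.2) := fun b hb => by
  obtain ⟨h1, w, -, h2, h3, h4⟩ := (by decide +kernel : ∀ b ∈ bl, b.1 < 34 ∧ ∃ w ∈ gk,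
    (∀ x ∈ w, x < 3) ∧ ([b.1], w ++ 4 :: J4.iw w) ∈ Eq2 ∧ b.2 = Golay.act (Golay.mat (J4A.evc w)) cT0) b hb
  have h5 : ∀ x ∈ w, x < 4 := fun x hx => (h2 x hx).trans (by norm_num)
  have := eq2 _ h3
  rw [ev_single, ev_append, ev_cons, s2_z, ev_s2 h5, ev_s2 (w := J4.iw w) (by
    simp only [J4.iw, List.mem_reverse, List.mem_map]
    rintro _ ⟨a, ha, rfl⟩
    exact (by decide : ∀ a < 4, [0, 2, 1, 3].getD a 0 < 4) a (h5 a ha)), J4.ev_iw pres.sat h5] at this
  exact ⟨h1, by rw [this, h4, nu_word h2, mul_assoc]⟩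

theorem VV_enum {y : Spor.J4} (hy : y ∈ VV) : ∃ m, inS bl m = true ∧ y = nu (um m) := by
  obtain ⟨a, rfl⟩ := hy
  induction a using Finset.induction_on with
  | empty => exact ⟨0, inS_zero _, by rw [um_zero]⟩
  | insert x a hx ih =>
    obtain ⟨m, h1, h2⟩ := ih
    obtain ⟨h3, h4⟩ := (by decide +kernel : ∀ x : GolayPt, inS bl (Lm.getD (gE.enc x) 0) = true ∧
      syn (mk (symmDiff (symmDiff {x} {none}) (um (Lm.getD (gE.enc x) 0)))) = 0) x
    have h5 := nu_CW ((mem_CW_iff_syn _).2 h4)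
    rw [nu_symmDiff, nu_symmDiff, nu_none, mul_one, ← insert_empty_eq, nu_insert (by simp), nu_empty,
      mul_one] at h5
    refine ⟨_, inS_xor h3 h1, ?_⟩
    rw [nu_insert hx, nu_xor, h2, eq_inv_of_mul_eq_one_left h5, inv_eq_of_mul_eq_one_right (nu_sq _)]

theorem VV_le_of {K : Subgroup Spor.J4} (h : ∀ b ∈ bl, s2 b.1 ∈ K) : VV ≤ K := fun y hy => by
  obtain ⟨m, h1, rfl⟩ := VV_enum hy
  have : ∀ l : List (ℕ × ℕ), (∀ b ∈ l, nu (um b.2) ∈ K) → ∀ m, inS l m = true → nu (um m) ∈ K := by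
    intro l hl
    induction l with
    | nil => intro m hm; rw [beq_iff_eq.1 hm, um_zero]; exact K.one_mem
    | cons b l ih =>
      intro m hm
      have ih' := ih fun c hc => hl c (List.mem_cons_of_mem _ hc)
      rcases Bool.or_eq_true _ _ ▸ hm with e | e
      · exact ih' m e
      · have := ih' _ e
        rw [nu_xor] at this
        exact (K.mul_mem_cancel_right (hl b List.mem_cons_self)).1 this
  exact this bl (fun b hb => (bl_ok b hb).2 ▸ h b hb) m h1

/-- the stabiliser of a vector -/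
def stab (u : Fin 112 → ZMod 2) : Subgroup Spor.J4 where
  carrier := {g | ac g u = u}
  one_mem' := ac_one u
  mul_mem' {a b} ha hb := by rw [Set.mem_ofPred_eq, ac_mul, hb, ha]
  inv_mem' {a} ha := by rw [Set.mem_ofPred_eq, ← ha, ac_inv, ha]

theorem stab_of {w : List ℕ} (hw : ∀ x ∈ w, x < 34)
    (h : get (nat_lit 112) (rn 1 w F0) 0 = get (nat_lit 112) F0 0) : ev s2 w ∈ stab (vec F0 0) :=
  (vec_rn hw one_pos _).symm.trans (vec_inj.2 h)

theorem stab_eq : stab (vec F0 0) = H := by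
  refine (H_max (genW_le.2 fun w hw => ?_)).resolve_right fun e => ?_
  · simp only [List.mem_cons, List.not_mem_nil, or_false] at hw
    rcases hw with rfl | rfl | rfl
    · exact ev_s2 (w := [0]) (by decide) ▸ stab_of (by decide) (by decide +kernel)
    · exact ev_s2 (w := [1]) (by decide) ▸ stab_of (by decide) (by decide +kernel)
    · rw [← v_ev, ← s2_z, ← ev_single s2]; exact stab_of (by decide) (by decide +kernel)
  · have h : ac (ev s2 [3]) _ = _ := (e ▸ Subgroup.mem_top _ : ev s2 [3] ∈ stab (vec F0 0))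
    rw [← vec_rn (by decide) one_pos, vec_inj] at h
    exact absurd h (by decide +kernel)

theorem fix_H {h : Spor.J4} (hh : h ∈ H) : ac h (vec F0 0) = vec F0 0 := (stab_eq ▸ hh : h ∈ stab _)

theorem add_add (u : Fin 112 → ZMod 2) : u + u = 0 := mxs.add_self u

theorem VV_f {y : Spor.J4} (hy : y ∈ VV) :
    ac y (vec F0 1) = vec F0 1 ∨ ac y (vec F0 1) = vec F0 1 + vec F0 0 := by
  let K : Subgroup Spor.J4 :=
    { carrier := {g | g ∈ H ∧ (ac g (vec F0 1) = vec F0 1 ∨ ac g (vec F0 1) = vec F0 1 + vec F0 0)}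
      one_mem' := ⟨H.one_mem, Or.inl (ac_one _)⟩
      mul_mem' := by
        rintro a b ⟨h1, h2⟩ ⟨h3, h4⟩
        refine ⟨H.mul_mem h1 h3, ?_⟩
        rw [ac_mul]
        rcases h4 with e | e <;> rw [e]
        · exact h2
        · rw [ac_add, fix_H h1]
          rcases h2 with e | e <;> rw [e]
          · exact Or.inr rfl
          · left; rw [add_assoc, add_add, add_zero]
      inv_mem' := by
        rintro a ⟨h1, h2⟩
        refine ⟨H.inv_mem h1, ?_⟩
        have := ac_inv a (vec F0 1)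
        rcases h2 with e | e <;> rw [e] at this
        · exact Or.inl this
        · rw [ac_add, fix_H (H.inv_mem h1)] at this
          right; rw [← add_zero (ac _ _), ← add_add (vec F0 0), ← add_assoc, this] }
  refine (VV_le_of (K := K) (fun b hb => ⟨(bl_ok b hb).2 ▸ VV_le_H (nu_mem _), ?_⟩) hy).2
  rw [← ev_single s2, ← vec_rn (N := 2) (by simpa using (bl_ok b hb).1) (by norm_num), vec_inj, vec_add]
  exact (by decide +kernel : ∀ b ∈ bl, get (nat_lit 112) (rn 2 [b.1] F0) 1 = get (nat_lit 112) F0 1 ∨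
    get (nat_lit 112) (rn 2 [b.1] F0) 1 = get (nat_lit 112) F0 1 ^^^ get (nat_lit 112) F0 0) b hb

theorem A0_eq {i : ℕ} (hi : i < 19) : vec A0 (2 * (i + 1)) = ac (wd s (i + 1))⁻¹ (vec F0 0) ∧
    vec A0 (2 * (i + 1) + 1) = ac (wd s (i + 1))⁻¹ (vec F0 1) := by
  obtain ⟨h1, h2, h3⟩ := (by decide +kernel : ∀ i < 19, (∀ x ∈ Ws.getD (i + 1) [], x < 4) ∧
    (∀ x ∈ J4.iw (Ws.getD (i + 1) []), x < 4) ∧ force (rn 2 (J4.iw (Ws.getD (i + 1) [])) F0)
      (fun X => Nat.beq (get (nat_lit 112) A0 (2 * (i + 1))) (get (nat_lit 112) X 0) &&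
        Nat.beq (get (nat_lit 112) A0 (2 * (i + 1) + 1)) (get (nat_lit 112) X 1)) = true) i hi
  simp only [force_eq, Bool.and_eq_true, Nat.beq_eq] at h3
  have h4 : ∀ x ∈ J4.iw (Ws.getD (i + 1) []), x < 34 := fun x hx => (h2 x hx).trans (by norm_num)
  rw [wd, ← J4.ev_iw pres.sat h1, ← ev_s2 h2, ← vec_rn (N := 2) h4 (by norm_num),
    ← vec_rn (N := 2) h4 (by norm_num)]
  exact ⟨vec_inj.2 h3.1, vec_inj.2 h3.2⟩

/-- the intersection of the normal subgroup with a conjugate -/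
theorem inter {i : ℕ} (hi : i < 19) {x : Spor.J4} (h1 : x ∈ VV)
    (h2 : wd s (i + 1) * x * (wd s (i + 1))⁻¹ ∈ VV) : ∃ m ∈ al.getD i [], x = nu (um m) := by
  obtain ⟨m, h3, rfl⟩ := VV_enum h1
  obtain ⟨X, h4, h5⟩ := enum_spec bl_ok enum_bl (fun c _ => by rw [um_zero, nu_empty, ac_one]) h3
  rw [Nat.zero_xor] at h4 h5
  refine ⟨m, ?_, rfl⟩
  have e : ∀ u, ac (nu (um m)) (ac (wd s (i + 1))⁻¹ u) =
      ac (wd s (i + 1))⁻¹ (ac (wd s (i + 1) * nu (um m) * (wd s (i + 1))⁻¹) u) := fun u => by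
    rw [← ac_mul, ← ac_mul]; congr 1; group
  obtain ⟨a1, a2⟩ := A0_eq hi
  have h6 := h5 (2 * (i + 1)) (by omega)
  have h7 := h5 (2 * (i + 1) + 1) (by omega)
  rw [a1, e, fix_H (VV_le_H h2), ← a1, vec_inj] at h6
  rw [a2, e] at h7
  rw [tst, force_eq] at h4
  have h8 := rng_spec h4 (k := i) (Nat.zero_le _) (by omega)
  simp only [force_eq, Bool.or_eq_true, Bool.and_eq_true, Nat.ble_eq, List.contains_iff_mem] at h8
  change (1 ≤ get _ (X ^^^ A0) (2 * (i + 1)) ∨ 1 ≤ get _ (X ^^^ A0) (2 * (i + 1) + 1) ∧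
    1 ≤ get _ (X ^^^ A0) (2 * (i + 1) + 1) ^^^ get _ A0 (2 * (i + 1))) ∨ _ at h8
  rw [get_xor, get_xor, h6, Nat.xor_self] at h8
  refine h8.resolve_left ?_
  rcases VV_f h2 with c | c <;> rw [c] at h7
  · rw [← a2, vec_inj] at h7
    rw [h7, Nat.xor_self]; omega
  · rw [ac_add, ← a1, ← a2, vec_add] at h7
    rw [h7, Nat.xor_right_comm _ _ (get _ A0 (2 * (i + 1) + 1)), Nat.xor_self, Nat.zero_xor, Nat.xor_self]
    omega

end Cfsg.Agent.Comp.J4
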