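import Cfsg.Agent.Comp.J4.CV
import Cfsg.Agent.H3x.Cx
import Cfsg.Agent.Golay.Out
import Cfsg.Agent.Golay.CanonAut

/-! The centraliser of an involution. -/

set_option autoImplicit false
set_option maxRecDepth 100000

namespace Cfsg.Agent.Comp.J4
open Cfsg Cfsg.Agent.Comp

open Cfsg.Agent.Golay Cfsg.Agent.J4B
open scoped Pointwise

/-- the centraliser -/
abbrev CC : Subgroup Spor.J4 := Subgroup.centralizer {v}

theorem mem_CC {g : Spor.J4} : g ∈ CC ↔ g * v = v * g := Subgroup.mem_centralizer_singleton_iff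

/-- the octads -/
def oO (j : ℕ) : Finset GolayPt := um (get 24 Op j)

/-- pairs of elements that act in the same way -/
def Ga0 : Submonoid (Spor.J4 × P24) where
  carrier := {p | p.1 ∈ CC ∧ p.2 ∈ M22ext ∧
    ∀ j < 77, ∃ k < 77, ac p.1 (vec Dp j) = vec Dp k ∧ p.2 • oO j = oO k}
  one_mem' := ⟨one_mem _, one_mem _, fun j hj => ⟨j, hj, ac_one _, one_smul _ _⟩⟩
  mul_mem' := by
    rintro a b ⟨h1, h2, h3⟩ ⟨h4, h5, h6⟩
    refine ⟨mul_mem h1 h4, mul_mem h2 h5, fun j hj => ?_⟩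
    obtain ⟨k, hk, e1, e2⟩ := h6 j hj
    obtain ⟨l, hl, e3, e4⟩ := h3 k hk
    exact ⟨l, hl, by rw [Prod.fst_mul, ac_mul, e1, e3], by rw [Prod.snd_mul, mul_smul, e2, e4]⟩

/-- the pairs as a group -/
def Ga : Subgroup (Spor.J4 × P24) :=
  { Ga0 with
    inv_mem' := fun {a} ha => Submonoid.powers_le.2 ha
      (mem_powers_iff_mem_zpowers.2 (inv_mem (Subgroup.mem_zpowers a))) }

theorem Dp_inj {j k : ℕ} (hj : j < 77) (hk : k < 77) (h : vec Dp j = vec Dp k) : j = k :=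
  (by decide +kernel : ∀ j < 77, ∀ k < 77,
    get (nat_lit 112) Dp j = get (nat_lit 112) Dp k → j = k) j hj k hk (vec_inj.1 h)

theorem Dp_zero : vec Dp 0 = vec F0 0 := vec_inj.2 (by decide +kernel)

theorem Ga_one {b : P24} (h : (1, b) ∈ Ga) : b = 1 := by
  refine eq_one_of_fix_compl h.2.1.1 fun x hx => ?_
  refine (by decide +kernel : ∀ x y : GolayPt, x ∉ um 8388611 → (∀ j < 77,
    (get 24 Op j).testBit (gE.enc y) = (get 24 Op j).testBit (gE.enc x)) → y = x) x _ hx fun j hj => ?_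
  obtain ⟨k, hk, e1, e2⟩ := h.2.2 j hj
  obtain rfl := Dp_inj hj hk ((ac_one _).symm.trans e1)
  rw [Bool.eq_iff_iff, ← mem_um, ← mem_um]
  change b • x ∈ oO j ↔ x ∈ oO j
  conv_lhs => rw [← show b • oO j = oO j from e2]
  exact Finset.smul_mem_smul_finset_iff b

theorem comm_z {l : ℕ} (h : ([l, 4], [4, l]) ∈ Eq2) : s2 l ∈ CC := by
  have := eq2 _ h
  simp only [ev_cons, ev_nil, mul_one, s2_z] at this
  exact mem_CC.2 this

theorem gn_ac : ∀ g ∈ gn, ∀ j < 77, g.2.2.getD j 0 < 77 ∧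
    ac (s2 g.1) (vec Dp j) = vec Dp (g.2.2.getD j 0) := fun g hg j hj => by
  obtain ⟨h1, h2⟩ := (by decide +kernel : ∀ g ∈ gn, g.1 < 34 ∧ force (rn 77 [g.1] Dp) (fun X =>
    rng (fun j => Nat.blt (g.2.2.getD j 0) 77 && Nat.beq (get (nat_lit 112) X j)
      (get (nat_lit 112) Dp (g.2.2.getD j 0))) 0 77) = true) g hg
  rw [force_eq] at h2
  have h3 := rng_spec h2 (Nat.zero_le j) (by omega)
  rw [Bool.and_eq_true, Nat.blt_eq, Nat.beq_eq] at h3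
  rw [← ev_single s2, ← vec_rn (by simpa using h1) hj]
  exact ⟨h3.1, vec_inj.2 h3.2⟩

theorem gn_mem : ∀ g ∈ gn, (s2 g.1, tp g.2.1) ∈ Ga ∧ pc (tp g.2.1) = g.2.1 := fun g hg => by
  obtain ⟨h1, h2, h3, h4⟩ := (by decide +kernel : ∀ g ∈ gn, ([g.1, 4], [4, g.1]) ∈ Eq2 ∧
    m24Err g.2.1 = 0 ∧ Golay.act (Golay.mat g.2.1) 8388609 = 8388609 ∧
    ∀ j < 77, Golay.act (Golay.mat g.2.1) (get 24 Op j) = get 24 Op (g.2.2.getD j 0)) g hg
  have e := pc_tp_of_m24Err h2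
  refine ⟨⟨comm_z h1, ⟨tp_mem_of_m24Err h2, ?_⟩, fun j hj => ⟨_, (gn_ac g hg j hj).1,
    (gn_ac g hg j hj).2, mk_injective ?_⟩⟩, e⟩
  · have e1 : mk ({none, some 0} : Finset GolayPt) = 8388609 := by decide +kernel
    exact mk_injective (by rw [← act_pc, e, e1, h3])
  · rw [← act_pc, e, oO, oO, mk_um_get, mk_um_get, h4 j hj]

/-- the group generated by four letters -/
noncomputable def C1 : Subgroup Spor.J4 := genW s2 [[5], [6], [9], [10]]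

theorem C1_le {K : Subgroup Spor.J4} (h : ∀ g ∈ gn, s2 g.1 ∈ K) : C1 ≤ K := genW_le.2 fun w hw => by
  obtain ⟨g, hg, rfl⟩ := (by decide +kernel : ∀ w ∈ [[5], [6], [9], [10]], ∃ g ∈ gn, w = [g.1]) w hw
  rw [ev_single]; exact h g hg

theorem C1_Ga {g : Spor.J4} (h : g ∈ C1) : ∃ b, (g, b) ∈ Ga := by
  obtain ⟨p, hp, rfl⟩ := C1_le (K := Ga.map (MonoidHom.fst _ _))
    (fun g hg => ⟨_, (gn_mem g hg).1, rfl⟩) h
  exact ⟨p.2, hp⟩

theorem s2_sg : s2 5 = io (ev J4A.t sg0) ∧ s2 6 = io (ev J4A.t sg1) ∧ s2 7 = (s2 5)⁻¹ ∧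
    s2 8 = (s2 6)⁻¹ := by
  have h1 := eq2 ([5], sg0) (by decide +kernel)
  have h2 := eq2 ([6], sg1) (by decide +kernel)
  have h3 := eq2 ([7], J4.iw sg0) (by decide +kernel)
  have h4 := eq2 ([8], J4.iw sg1) (by decide +kernel)
  rw [ev_single, ev_s2 (by decide)] at h1 h2 h3 h4
  rw [J4.ev_iw pres.sat (by decide)] at h3 h4
  exact ⟨by rw [h1, io_ev (by decide)], by rw [h2, io_ev (by decide)], by rw [h3, h1],
    by rw [h4, h2]⟩

theorem gen_S : Gen pc (St M24 S0) [J4A.evc sg0, J4A.evc sg1] :=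
  gen_of_chain ((fixTest_fd cS_ok.1).in_St (by decide +kernel)) (card_St_sextet cS_ok.mem)
    [(0, 16777215, 4, [[0, 0, 1, 0, 0, 0, 1, 0, 0, 0, 0, 1, 0, 0, 0, 0, 1], [1, 0, 1, 0, 1, 0, 0, 0, 0, 0, 0]]),
    (1, 10483710, 4, [[0, 0, 1, 0, 0, 0, 1, 0, 0, 0, 1, 0], [0, 1, 0, 1, 1, 1, 0, 0, 0, 0, 0, 1, 1], [1, 0, 0, 0, 0, 0, 1, 0, 1, 1, 0, 0, 1]]),
    (2, 9631740, 3, [[0, 1, 2, 1, 0], [2, 1, 0, 2, 2, 1], [2, 2, 1, 0, 2]]),
    (3, 165752, 2, [[1, 0]]),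
    (4, 1040, 1, [])] (by decide +kernel)

theorem St_C1 {g : M24} (h : g.1 • S0 = S0) : io g ∈ C1 := by
  obtain ⟨g', hg, e⟩ := gen_S.le ((C1.comap io).map M24.subtype) (fun g hg hc => by
    simp only [List.mem_cons, List.not_mem_nil, or_false, ← J4A.pc_ev, pc_inj] at hc
    rcases hc with rfl | rfl
    · exact ⟨_, (s2_sg.1 ▸ (letter_mem_genW (by simp) : s2 5 ∈ C1) : io _ ∈ C1), rfl⟩
    · exact ⟨_, (s2_sg.2.1 ▸ (letter_mem_genW (by simp) : s2 6 ∈ C1) : io _ ∈ C1), rfl⟩)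
    ⟨g.2, h⟩
  obtain rfl : g' = g := Subtype.ext e
  exact hg

theorem VV_C1 : VV ≤ C1 := VV_le_of fun b hb => by
  obtain ⟨e, he, h1, h2⟩ := (by decide +kernel : ∀ b ∈ bl, ∃ e ∈ Eq2, e.1 = [b.1] ∧
    ∀ x ∈ e.2, x ∈ [5, 6, 7, 8, 9]) b hb
  rw [← ev_single s2, ← h1, eq2 e he]
  refine ev_mem fun x hx => ?_
  have h5 : s2 5 ∈ C1 := letter_mem_genW (by simp)
  have h6 : s2 6 ∈ C1 := letter_mem_genW (by simp)
  have := h2 x hx
  simp only [List.mem_cons, List.not_mem_nil, or_false] at this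
  rcases this with rfl | rfl | rfl | rfl | rfl
  exacts [h5, h6, s2_sg.2.2.1 ▸ inv_mem h5, s2_sg.2.2.2 ▸ inv_mem h6, letter_mem_genW (by simp)]

theorem fix_S0 {g : M24} (h : io g ∈ CC) : g.1 • S0 = S0 := by
  have hT : um cT0 ∈ S0 := mem_fd.2 ⟨0, by norm_num, by decide +kernel⟩
  have h4 : (um cT0).card = 4 := by decide +kernel
  have h1 : symmDiff (g.1 • um cT0) (um cT0) ∈ CW := by
    rw [← nu_eq_one (even_symmDiff (by rw [Finset.card_smul_finset, h4]; decide) (by rw [h4]; decide)),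
      nu_symmDiff, nu_smul g (by rw [h4]; decide), nu_T0, mem_CC.1 h, mul_inv_cancel_right, vv]
  refine sextet_unique (smul_mem_sextets g.2 cS_ok.mem) cS_ok.mem (smul_mem_smul_fam.2 hT) ?_
  have h2 := card_symmDiff_add (g.1 • um cT0) (um cT0)
  rw [Finset.card_smul_finset, h4] at h2
  have h3 := card_of_mem_CW h1
  by_cases c : (symmDiff (g.1 • um cT0) (um cT0)).card = 0
  · rw [symmDiff_eq_bot.1 (Finset.card_eq_zero.1 c)]; exact hT
  · have h5 : Disjoint (g.1 • um cT0) (um cT0) :=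
      Finset.disjoint_iff_inter_eq_empty.2 (Finset.card_eq_zero.1 (by omega))
    rw [h5.symmDiff_eq_sup] at h1 h2 h3 c
    have := sdiff_mem_sextet cS_ok.mem hT (o := g.1 • um cT0 ⊔ um cT0) ⟨h1, by omega⟩ le_sup_right
    rwa [sup_sdiff_right_self, h5.sdiff_eq_left] at this

theorem v_mem : v ∈ VV := nu_T0 ▸ nu_mem _

theorem VV_CC : VV ≤ CC := fun _ h => mem_CC.2 (VV_comm h v_mem)

theorem CH_C1 {g : Spor.J4} (h1 : g ∈ CC) (h2 : g ∈ H) : g ∈ C1 := by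
  obtain ⟨y, hy, k, rfl⟩ := mem_H.1 h2
  exact mul_mem (VV_C1 hy) (St_C1 (fix_S0 ((CC.mul_mem_cancel_left (VV_CC hy)).1 h1)))

theorem orb_sub {g : Spor.J4} (hg : g ∈ CC) : ∃ j < 77, ac g (vec F0 0) = vec Dp j := by
  obtain ⟨i, hi, k, e⟩ := closed.cover g⁻¹
  rw [cs_eq] at e
  have e1 : ac g (vec F0 0) = ac (wd s i * io k)⁻¹ (vec F0 0) := by
    rw [← fix_H e, ← ac_mul, mul_inv_cancel_left, fix_H e]
  cases i with
  | zero =>
    rw [closed.w0, one_mul, fix_H (inv_mem (io_mem k))] at e1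
    exact ⟨0, by norm_num, e1.trans Dp_zero.symm⟩
  | succ i =>
    obtain ⟨m, hm, e2⟩ := inter (i := i) (by omega) (VV_conj k v_mem) (by
      have := VV_conj_H (inv_mem e) v_mem
      rwa [show (g⁻¹ * (wd s (i + 1) * io k)⁻¹)⁻¹ * v * (g⁻¹ * (wd s (i + 1) * io k)⁻¹)⁻¹⁻¹ =
        wd s (i + 1) * (io k * (g * v * g⁻¹) * (io k)⁻¹) * (wd s (i + 1))⁻¹ by group, mem_CC.1 hg,
        mul_inv_cancel_right] at this)
    rcases (by decide +kernel : ∀ i < 19, ∀ m ∈ al.getD i [], m = 0 ∨ ∃ a ∈ alw.getD i [],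
      (∀ x ∈ a.2.1, x < 3) ∧ (∀ x ∈ Ws.getD (i + 1) [] ++ a.2.1, x < 4) ∧
      (∀ x ∈ J4.iw (Ws.getD (i + 1) [] ++ a.2.1), x < 4) ∧ a.2.2 < 77 ∧
      syn (mk (symmDiff (um (Golay.act (Golay.mat (J4A.evc a.2.1)) cT0)) (um m))) = 0 ∧
      get (nat_lit 112) (rn 1 (J4.iw (Ws.getD (i + 1) [] ++ a.2.1)) F0) 0 =
        get (nat_lit 112) Dp a.2.2) i (by omega) m hm with rfl | ⟨⟨_, w, j⟩, -, h1, h2, h3, h4, h5, h6⟩
    · rw [um_zero, nu_empty, mul_inv_eq_one, mul_eq_left] at e2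
      exact absurd e2 v_ne
    · have h7 := nu_CW ((mem_CW_iff_syn _).2 h5)
      rw [nu_symmDiff, nu_word h1, ← e2, ← io_ev h1] at h7
      have h8 : io (k⁻¹ * ev J4A.t w) ∈ CC := by
        rw [mem_CC, map_mul, map_inv]
        have h9 := eq_inv_of_mul_eq_one_left h7
        rw [mul_inv_rev, mul_inv_rev, inv_inv, inv_eq_of_mul_eq_one_right vv] at h9
        calc _ = (io k)⁻¹ * (io (ev J4A.t w) * v * (io (ev J4A.t w))⁻¹) * io (ev J4A.t w) := by group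
          _ = _ := by rw [h9]; group
      obtain ⟨b, hb⟩ := C1_Ga (St_C1 (fix_S0 h8))
      obtain ⟨l, hl, e3, -⟩ := hb.2.2 j h4
      refine ⟨l, hl, ?_⟩
      rw [← vec_inj, vec_rn (fun x hx => (h3 x hx).trans (by norm_num)) one_pos, ev_s2 h3,
        J4.ev_iw pres.sat h2, ev_append, ← io_ev h1] at h6
      rw [e1, ← e3, ← h6, ← ac_mul, map_mul, map_inv]
      exact congrArg (ac · _) (by rw [wd]; group)

theorem orb_sup : ∀ j < 77, ∃ g ∈ C1, ac g (vec F0 0) = vec Dp j := fun j => by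
  induction j using Nat.strong_induction_on with | _ j ih => ?_
  intro hj
  rcases (by decide +kernel : ∀ j < 77, j = 0 ∨ ∃ g ∈ gn, ∃ k < j, g.2.2.getD k 0 = j ∧
    [g.1] ∈ [[5], [6], [9], [10]]) j hj with rfl | ⟨g, hg, k, hk, rfl, h1⟩
  · exact ⟨1, one_mem _, (ac_one _).trans Dp_zero.symm⟩
  · obtain ⟨a, ha, e⟩ := ih k hk (hk.trans hj)
    exact ⟨_, mul_mem (letter_mem_genW h1) ha, by rw [ac_mul, e, (gn_ac g hg k (hk.trans hj)).2]⟩

theorem C1_CC : C1 ≤ CC := fun _ h => let ⟨_, hb⟩ := C1_Ga h; hb.1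

theorem mem_H_iff {a b : Spor.J4} : a⁻¹ * b ∈ H ↔ ac a (vec F0 0) = ac b (vec F0 0) := by
  rw [← stab_eq]
  change ac _ _ = _ ↔ _
  rw [ac_mul]
  exact ⟨fun h => by rw [← congrArg (ac a) h, ← ac_mul, mul_inv_cancel, ac_one],
    fun h => by rw [← h, ac_inv]⟩

theorem CC_C1 : CC ≤ C1 := fun g hg => by
  obtain ⟨j, hj, e⟩ := orb_sub hg
  obtain ⟨a, ha, e'⟩ := orb_sup j hj
  exact (C1.mul_mem_cancel_left (inv_mem ha)).1
    (CH_C1 (mul_mem (inv_mem (C1_CC ha)) hg) (mem_H_iff.2 (e'.trans e.symm)))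

theorem relIndex_CC : H.relIndex CC = 77 := by
  choose! a h1 h2 using orb_sup
  have : {y | ∃ g ∈ CC, y = cs H g} = (fun j => cs H (a j)⁻¹) '' (Finset.range 77) := by
    ext y
    constructor
    · rintro ⟨g, hg, rfl⟩
      obtain ⟨j, hj, e⟩ := orb_sub (inv_mem hg)
      exact ⟨j, by simpa using hj, cs_eq.2 (mem_H_iff.2 ((h2 j hj).trans e.symm))⟩
    · rintro ⟨j, hj, rfl⟩
      exact ⟨_, inv_mem (C1_CC (h1 j (by simpa using hj))), rfl⟩
  rw [relIndex_eq, this, Set.InjOn.ncard_image, Set.ncard_coe_finset, Finset.card_range]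
  intro j hj k hk e
  have hj' : j < 77 := by simpa using hj
  have hk' : k < 77 := by simpa using hk
  rw [cs_eq, inv_inv, mem_H_iff, h2 j hj', h2 k hk'] at e
  exact Dp_inj hj' hk' e

theorem card_CH : Nat.card (H.subgroupOf CC) = 2048 * 138240 := by
  rw [← card_VV, ← card_St_sextet cS_ok.mem, ← Nat.card_prod]
  refine (Nat.card_eq_of_bijective (fun p : VV × St M24 S0 =>
    (⟨⟨p.1 * io ⟨p.2, p.2.2.1⟩, mul_mem (VV_CC p.1.2) (mem_CC.2 (cenS _ p.2.2.2))⟩,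
      mem_H.2 ⟨_, p.1.2, _, rfl⟩⟩ : H.subgroupOf CC)) ⟨?_, fun x => ?_⟩).symm
  · rintro ⟨a, g⟩ ⟨b, k⟩ e
    have e : a.1 * io ⟨g, g.2.1⟩ = b * io ⟨k, k.2.1⟩ := congrArg (·.1.1) e
    have h : (⟨g, g.2.1⟩ * ⟨k, k.2.1⟩⁻¹ : M24) = 1 := eq_one_of_mem (by
      rw [map_mul, map_inv, show io ⟨g, g.2.1⟩ * (io ⟨k, k.2.1⟩)⁻¹ = a.1⁻¹ * b by
        rw [eq_inv_mul_iff_mul_eq, ← mul_assoc, e, mul_inv_cancel_right]]
      exact VV.mul_mem (VV.inv_mem a.2) b.2)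
    rw [mul_inv_eq_one] at h
    rw [h] at e
    exact Prod.ext (Subtype.ext (mul_right_cancel e)) (Subtype.ext (congrArg (·.1) h))
  · obtain ⟨y, hy, g, e⟩ := mem_H.1 (show x.1.1 ∈ H from x.2)
    exact ⟨(⟨y, hy⟩, ⟨g, g.2, fix_S0 ((CC.mul_mem_cancel_left (VV_CC hy)).1 (e ▸ x.1.2))⟩),
      Subtype.ext (Subtype.ext e.symm)⟩

theorem card_CC : Nat.card CC = 21799895040 := by
  rw [← (H.subgroupOf CC).card_mul_index, card_CH, ← Subgroup.relIndex, relIndex_CC]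

theorem exists_theta : ∃ θ : CC →* M22ext, Function.Surjective θ ∧
    ∀ (g : CC) (b : P24), (g.1, b) ∈ Ga → (θ g).1 = b := by
  have hu : ∀ g b b', (g, b) ∈ Ga → (g, b') ∈ Ga → b = b' := fun g b b' h h' =>
    mul_inv_eq_one.1 (Ga_one (by simpa using mul_mem h (inv_mem h')))
  choose f hf using fun g : CC => C1_Ga (CC_C1 g.2)
  refine ⟨MonoidHom.mk' (fun g => ⟨f g, (hf g).2.1⟩) fun g h =>
    Subtype.ext (hu _ _ _ (hf (g * h)) (mul_mem (hf g) (hf h))), fun b => ?_,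
    fun g b h => hu _ _ _ (hf g) h⟩
  have hg : Gen pc M22ext (gn.map fun g => g.2.1) :=
    gen_of_chain (fun c hc => by
      obtain ⟨g, hg, rfl⟩ := List.mem_map.1 hc
      exact ⟨_, (gn_mem g hg).1.2.1, (gn_mem g hg).2⟩) card_M22ext
    [(0, 8388609, 1, [[2, 3, 2, 1, 3], [3, 2, 3, 0, 0]]),
    (1, 8388606, 5, [[0, 1, 0, 1, 1, 0, 1, 0, 0, 0, 1], [0, 1, 1, 0, 1, 0, 0, 1, 0, 0, 0, 1, 0]]),
    (2, 8388604, 4, [[0, 1, 1, 1, 0, 0, 0, 0, 1, 0, 1], [0, 1, 0, 1, 0, 0, 0, 0, 1, 0, 0, 1]]),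
    (3, 8388600, 4, [[0, 0, 1, 0, 1, 0, 1, 1, 0, 0], [1, 0, 1, 0, 1, 1, 0, 0, 0, 1, 1, 0], [0, 1, 0, 0, 1, 0, 1, 0, 0, 0, 1, 0]]),
    (4, 8241104, 2, [[2, 2]]),
    (5, 147488, 2, [])] (by decide +kernel)
  obtain ⟨p, hp, e⟩ := hg.le (Ga.map (MonoidHom.snd _ _)) (fun b _ hc => by
    obtain ⟨g, hg, e⟩ := List.mem_map.1 hc
    exact ⟨_, (gn_mem g hg).1, pc_injective ((gn_mem g hg).2.trans e)⟩) b.2
  exact ⟨⟨p.1, hp.1⟩, Subtype.ext (hu _ _ _ (hf _) (e ▸ hp : (p.1, b.1) ∈ Ga))⟩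

/-- the letters of the extraspecial group -/
def ql (i : ℕ) : ℕ := if i = 0 then 4 else 21 + i

/-- the generators of the extraspecial group -/
noncomputable def s3 (i : ℕ) : Spor.J4 := s2 (ql i)

theorem es_Q : Fischer.ES (gen s3 13) v ∧ Nat.card (gen s3 13) = 2 ^ 13 := by
  have h0 : s3 0 = v := s2_z
  refine h0 ▸ H3x.es_gen (w := 6) (by norm_num) (h0 ▸ v_ne) (h0 ▸ vv) (fun i hi => ?_)
    fun i hi j hj => ?_
  · refine ((by decide +kernel : ∀ i ≤ 12, ([ql i, ql i], []) ∈ Eq2 ∨ ([ql i, ql i], [ql 0]) ∈ Eq2)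
      i hi).imp (fun h => ?_) fun h => ?_ <;> simpa [s3] using eq2 _ h
  · have := eq2 _ ((by decide +kernel : ∀ i ≤ 12, ∀ j < i, ([ql i, ql j], [ql j, ql i] ++
      if i = j + 1 ∧ j % 2 = 1 then [ql 0] else []) ∈ Eq2) i hi j hj)
    split_ifs at this ⊢ <;> simpa [s3, mul_assoc] using this

theorem Q_Ga : ∀ q ∈ gen s3 13, (q, (1 : P24)) ∈ Ga := fun q hq =>
  gen_le (K := Ga.comap (MonoidHom.inl Spor.J4 P24)).2 (fun i hi => by
    refine ⟨mem_CC.2 (es_Q.1.central _ (letter_mem_gen hi)).eq.symm, one_mem _,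
      fun j hj => ⟨j, hj, ?_, one_smul _ _⟩⟩
    obtain ⟨h1, h2⟩ := (by decide +kernel : ∀ i < 13, ql i < 34 ∧ rn 77 [ql i] Dp = Dp) i hi
    change ac (s2 _) _ = _
    rw [← ev_single s2, ← vec_rn (by simpa using h1) hj, h2]) hq

theorem norm_Q : CC ≤ Subgroup.normalizer (gen s3 13 : Set Spor.J4) :=
  CC_C1.trans (C1_le fun g hg => Subgroup.mem_normalizer_fintype fun x hx =>
    (gen_le (K := (gen s3 13).comap (MulAut.conj (s2 g.1)).toMonoidHom)).2 (fun i hi => by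
      obtain ⟨e, he, h1, h2, h3⟩ := (by decide +kernel : ∀ g ∈ gn, ∀ i < 13, ∃ e ∈ Eq2,
        e.1 = [g.1, ql i] ∧ e.2 = e.2.dropLast ++ [g.1] ∧
        ∀ x ∈ e.2.dropLast, ∃ k < 13, ql k = x) g hg i hi
      have := eq2 e he
      rw [h1, h2, ev_append, ev_single, ev_cons, ev_single] at this
      change s2 g.1 * s2 (ql i) * (s2 g.1)⁻¹ ∈ gen s3 13
      rw [this, mul_inv_cancel_right]
      refine ev_mem fun y hy => ?_
      obtain ⟨k, hk, rfl⟩ := h3 y hy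
      exact letter_mem_gen (s := s3) hk) hx)

theorem structure_CC : orderOf v = 2 ∧ ∃ Q N M : Subgroup CC, Q.Normal ∧ N.Normal ∧ Q ≤ N ∧ N ≤ M ∧
    Nat.card Q = 2 ^ 13 ∧ IsExtraspecial 2 Q ∧ Nat.card N = 3 * 2 ^ 13 ∧ M.index = 2 ∧
    ∃ (_ : (N.subgroupOf M).Normal), IsM22 (M ⧸ N.subgroupOf M) := by
  obtain ⟨θ, h1, h2⟩ := exists_theta
  have hQ : gen s3 13 ≤ CC := fun q hq => (Q_Ga q hq).1
  have h3 := H3x.es_sub es_Q.1 hQ
  let M := (Spor.M22.subgroupOf M22ext).comap θ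
  let φ : M →* Spor.M22 := (M22ext.subtype.comp (θ.comp M.subtype)).codRestrict _ fun x => x.2
  have h4 : Function.Surjective φ := fun b => by
    obtain ⟨g, hg⟩ := h1 ⟨b, M22_le_ext b.2⟩
    exact ⟨⟨g, by rw [Subgroup.mem_comap, hg]; exact b.2⟩, Subtype.ext (congrArg (·.1) hg)⟩
  have h5 : θ.ker.subgroupOf M = φ.ker := by
    ext x
    exact ⟨fun h => Subtype.ext (congrArg (·.1) h), fun h => Subtype.ext (congrArg (·.1) h)⟩
  refine ⟨orderOf_eq_prime (by rw [pow_two, vv]) v_ne, (gen s3 13).subgroupOf CC, θ.ker, M,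
    Subgroup.normal_subgroupOf_of_le_normalizer norm_Q, inferInstance,
    fun q hq => Subtype.ext (h2 q 1 (Q_Ga _ hq)), fun g hg => ?_, h3.2.trans es_Q.2, h3.1, ?_, ?_,
    inferInstance, ?_⟩
  · rw [Subgroup.mem_comap, MonoidHom.mem_ker.1 hg]; exact one_mem _
  · have := θ.ker.card_mul_index
    rw [Subgroup.index_ker, MonoidHom.range_eq_top.2 h1, Subgroup.card_top, card_M22ext, card_CC] at this
    omega
  · rw [Subgroup.index_comap_of_surjective _ h1]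
    have := (Spor.M22.subgroupOf M22ext).card_mul_index
    rw [Nat.card_congr (Subgroup.subgroupOfEquivOfLe M22_le_ext).toEquiv, card_M22, card_M22ext] at this
    omega
  · have e := (QuotientGroup.quotientMulEquivOfEq h5).trans
      (QuotientGroup.quotientKerEquivOfSurjective φ h4)
    have := simple_M22
    exact ⟨e.isSimpleGroup, (Nat.card_congr e.toEquiv).trans card_M22⟩

end Cfsg.Agent.Comp.J4
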